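import Cfsg.Agent.Lib.H91.TCL34B.Data
import Cfsg.Agent.Lib.H35.TC
set_option autoImplicit false
set_option maxRecDepth 100000
set_option linter.all false
namespace H91.TCL34B
open H35.TC
/-- letters -/
inductive Lt | b | bi | d | di
  deriving DecidableEq
/-- inverse letter -/
def inv : Lt → Lt
  | .b => .bi
  | .bi => .b
  | .d => .di
  | .di => .d
/-- table functions -/
noncomputable def T : Lt → ℕ → ℕ
  | .b => T_b
  | .bi => T_bi
  | .d => T_d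
  | .di => T_di
/-- decoding of letter codes -/
def lt : ℕ → Lt
  | 0 => .b
  | 1 => .bi
  | 2 => .d
  | _ => .di
/-- Coxeter matrix (0: no relation) -/
def mm : Lt → Lt → ℕ
  | _, _ => 0
/-- extra relators `w ^ n` -/
def extra : List (List Lt × ℕ) := [
  ([.d, .bi, .d, .b, .di, .b], 1),
  ([.di, .bi, .di, .di, .di, .bi, .d, .d, .d, .b, .d, .b, .b], 1),
  ([.b, .bi], 1),
  ([.bi, .b], 1),
  ([.d, .di], 1),
  ([.di, .d], 1)]
/-- relators -/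
def rels : List (List Lt) := mkRels [] mm extra
/-- subgroup words -/
def subs : List (List Lt) := [
  [.b]]
noncomputable def dp_b_0 (j u : ℕ) : Bool :=
  Bool.rec (motive := fun _ => Bool) (lH [] [] M (Nat.sub (T_b u) (Nat.mod (T_b u) M)) (Nat.mod (T_b u) M) u) (lS MG [T_bi] M (Nat.sub (T_b u) (Nat.mod (T_b u) M)) (nat_lit 40) (Nat.mod (T_b u) M) u) (Nat.ble (nat_lit 7) j)
noncomputable def dp_b_1 (j u : ℕ) : Bool :=
  Bool.rec (motive := fun _ => Bool) (lF [T_di, T_bi, T_d, T_bi, T_di] M (Nat.sub (T_b u) (Nat.mod (T_b u) M)) (Nat.mod (T_b u) M) u) (dp_b_0 j u) (Nat.ble (nat_lit 6) j)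
noncomputable def disp_b (j u : ℕ) : Bool :=
  Bool.rec (motive := fun _ => Bool) (Bool.rec (motive := fun _ => Bool) (lDef P (nat_lit 0) (Nat.mod (T_b u) M) u) (lDef P (nat_lit 1) u (Nat.mod (T_b u) M)) (Nat.ble (nat_lit 1) j)) (Bool.rec (motive := fun _ => Bool) (lF1 T_bi M (Nat.sub (T_b u) (Nat.mod (T_b u) M)) (Nat.mod (T_b u) M) u) (Bool.rec (motive := fun _ => Bool) (lF [T_d, T_bi, T_d, T_b, T_di] M (Nat.sub (T_b u) (Nat.mod (T_b u) M)) (Nat.mod (T_b u) M) u) (Bool.rec (motive := fun _ => Bool) (lF [T_di, T_b, T_d, T_bi, T_d] M (Nat.sub (T_b u) (Nat.mod (T_b u) M)) (Nat.mod (T_b u) M) u) (dp_b_1 j u) (Nat.ble (nat_lit 5) j)) (Nat.ble (nat_lit 4) j)) (Nat.ble (nat_lit 3) j)) (Nat.ble (nat_lit 2) j)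
noncomputable def chk_b (j u : ℕ) : Bool :=
  Bool.rec (motive := fun _ => Bool) (disp_b j u) (Nat.ble (Nat.succ (MG u)) A) (Nat.ble A (T_b u))
noncomputable def dp_bi_0 (j u : ℕ) : Bool :=
  Bool.rec (motive := fun _ => Bool) (lF [T_di, T_bi, T_di, T_di, T_di, T_b, T_d, T_d, T_d, T_b, T_d, T_bi] M (Nat.sub (T_bi u) (Nat.mod (T_bi u) M)) (Nat.mod (T_bi u) M) u) (lF [T_di, T_di, T_di, T_b, T_d, T_d, T_d, T_b, T_d, T_bi, T_bi, T_di] M (Nat.sub (T_bi u) (Nat.mod (T_bi u) M)) (Nat.mod (T_bi u) M) u) (Nat.ble (nat_lit 7) j)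
noncomputable def dp_bi_1 (j u : ℕ) : Bool :=
  Bool.rec (motive := fun _ => Bool) (lF [T_di, T_b, T_di, T_bi, T_d] M (Nat.sub (T_bi u) (Nat.mod (T_bi u) M)) (Nat.mod (T_bi u) M) u) (dp_bi_0 j u) (Nat.ble (nat_lit 6) j)
noncomputable def dp_bi_2 (j u : ℕ) : Bool :=
  Bool.rec (motive := fun _ => Bool) (lF [T_d, T_bi, T_di, T_b, T_di] M (Nat.sub (T_bi u) (Nat.mod (T_bi u) M)) (Nat.mod (T_bi u) M) u) (dp_bi_1 j u) (Nat.ble (nat_lit 5) j)
noncomputable def disp_bi (j u : ℕ) : Bool :=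
  Bool.rec (motive := fun _ => Bool) (lDef P (nat_lit 0) u (Nat.mod (T_bi u) M)) (Bool.rec (motive := fun _ => Bool) (lDef P (nat_lit 1) (Nat.mod (T_bi u) M) u) (Bool.rec (motive := fun _ => Bool) (lF1 T_b M (Nat.sub (T_bi u) (Nat.mod (T_bi u) M)) (Nat.mod (T_bi u) M) u) (Bool.rec (motive := fun _ => Bool) (lF [T_d, T_b, T_di, T_b, T_d] M (Nat.sub (T_bi u) (Nat.mod (T_bi u) M)) (Nat.mod (T_bi u) M) u) (dp_bi_2 j u) (Nat.ble (nat_lit 4) j)) (Nat.ble (nat_lit 3) j)) (Nat.ble (nat_lit 2) j)) (Nat.ble (nat_lit 1) j)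
noncomputable def chk_bi (j u : ℕ) : Bool :=
  Bool.rec (motive := fun _ => Bool) (disp_bi j u) (Nat.ble (Nat.succ (MG u)) A) (Nat.ble A (T_bi u))
noncomputable def dp_d_0 (j u : ℕ) : Bool :=
  Bool.rec (motive := fun _ => Bool) (lF [T_bi, T_d, T_b, T_di, T_b] M (Nat.sub (T_d u) (Nat.mod (T_d u) M)) (Nat.mod (T_d u) M) u) (lF [T_b, T_di, T_b, T_d, T_bi] M (Nat.sub (T_d u) (Nat.mod (T_d u) M)) (Nat.mod (T_d u) M) u) (Nat.ble (nat_lit 5) j)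
noncomputable def dp_d_1 (j u : ℕ) : Bool :=
  Bool.rec (motive := fun _ => Bool) (lS MG [T_di] M (Nat.sub (T_d u) (Nat.mod (T_d u) M)) (nat_lit 40) (Nat.mod (T_d u) M) u) (lF [T_b, T_b, T_di, T_bi, T_di, T_di, T_di, T_bi, T_d, T_d, T_d, T_b] M (Nat.sub (T_d u) (Nat.mod (T_d u) M)) (Nat.mod (T_d u) M) u) (Nat.ble (nat_lit 7) j)
noncomputable def dp_d_2 (j u : ℕ) : Bool :=
  Bool.rec (motive := fun _ => Bool) (lF [T_bi, T_bi, T_di, T_bi, T_di, T_di, T_di, T_b, T_d, T_d, T_d, T_b] M (Nat.sub (T_d u) (Nat.mod (T_d u) M)) (Nat.mod (T_d u) M) u) (lF [T_b, T_d, T_bi, T_bi, T_di, T_bi, T_di, T_di, T_di, T_b, T_d, T_d] M (Nat.sub (T_d u) (Nat.mod (T_d u) M)) (Nat.mod (T_d u) M) u) (Nat.ble (nat_lit 10) j)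
noncomputable def dp_d_3 (j u : ℕ) : Bool :=
  Bool.rec (motive := fun _ => Bool) (lS MG [T_d, T_b, T_d, T_bi, T_bi, T_di, T_bi, T_di, T_di, T_di, T_b, T_d] M (Nat.sub (T_d u) (Nat.mod (T_d u) M)) (nat_lit 40) (Nat.mod (T_d u) M) u) (dp_d_2 j u) (Nat.ble (nat_lit 9) j)
noncomputable def dp_d_4 (j u : ℕ) : Bool :=
  Bool.rec (motive := fun _ => Bool) (Bool.rec (motive := fun _ => Bool) (lDef P (nat_lit 3) u (Nat.mod (T_d u) M)) (lF [T_bi, T_di, T_b, T_di, T_bi] M (Nat.sub (T_d u) (Nat.mod (T_d u) M)) (Nat.mod (T_d u) M) u) (Nat.ble (nat_lit 3) j)) (Bool.rec (motive := fun _ => Bool) (dp_d_0 j u) (Bool.rec (motive := fun _ => Bool) (dp_d_1 j u) (dp_d_3 j u) (Nat.ble (nat_lit 8) j)) (Nat.ble (nat_lit 6) j)) (Nat.ble (nat_lit 4) j)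
noncomputable def disp_d (j u : ℕ) : Bool :=
  Bool.rec (motive := fun _ => Bool) (Bool.rec (motive := fun _ => Bool) (lF1 T_di M (Nat.sub (T_d u) (Nat.mod (T_d u) M)) (Nat.mod (T_d u) M) u) (lDef P (nat_lit 2) (Nat.mod (T_d u) M) u) (Nat.ble (nat_lit 1) j)) (dp_d_4 j u) (Nat.ble (nat_lit 2) j)
noncomputable def chk_d (j u : ℕ) : Bool :=
  Bool.rec (motive := fun _ => Bool) (disp_d j u) (Nat.ble (Nat.succ (MG u)) A) (Nat.ble A (T_d u))
noncomputable def dp_di_0 (j u : ℕ) : Bool :=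
  Bool.rec (motive := fun _ => Bool) (lS MG [T_d] M (Nat.sub (T_di u) (Nat.mod (T_di u) M)) (nat_lit 40) (Nat.mod (T_di u) M) u) (lF [T_di, T_di, T_b, T_d, T_d, T_d, T_b, T_d, T_bi, T_bi, T_di, T_bi] M (Nat.sub (T_di u) (Nat.mod (T_di u) M)) (Nat.mod (T_di u) M) u) (Nat.ble (nat_lit 7) j)
noncomputable def dp_di_1 (j u : ℕ) : Bool :=
  Bool.rec (motive := fun _ => Bool) (lF [T_di, T_bi, T_d, T_d, T_d, T_b, T_d, T_b, T_b, T_di, T_bi, T_di] M (Nat.sub (T_di u) (Nat.mod (T_di u) M)) (Nat.mod (T_di u) M) u) (lS MG [T_di, T_bi, T_d, T_d, T_d, T_b, T_d, T_b, T_b, T_di, T_bi, T_di] M (Nat.sub (T_di u) (Nat.mod (T_di u) M)) (nat_lit 40) (Nat.mod (T_di u) M) u) (Nat.ble (nat_lit 9) j)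
noncomputable def dp_di_2 (j u : ℕ) : Bool :=
  Bool.rec (motive := fun _ => Bool) (dp_di_0 j u) (dp_di_1 j u) (Nat.ble (nat_lit 8) j)
noncomputable def disp_di (j u : ℕ) : Bool :=
  Bool.rec (motive := fun _ => Bool) (Bool.rec (motive := fun _ => Bool) (lF1 T_d M (Nat.sub (T_di u) (Nat.mod (T_di u) M)) (Nat.mod (T_di u) M) u) (lDef P (nat_lit 2) u (Nat.mod (T_di u) M)) (Nat.ble (nat_lit 1) j)) (Bool.rec (motive := fun _ => Bool) (Bool.rec (motive := fun _ => Bool) (lDef P (nat_lit 3) (Nat.mod (T_di u) M) u) (lF [T_bi, T_d, T_bi, T_di, T_b] M (Nat.sub (T_di u) (Nat.mod (T_di u) M)) (Nat.mod (T_di u) M) u) (Nat.ble (nat_lit 3) j)) (Bool.rec (motive := fun _ => Bool) (lF [T_b, T_d, T_bi, T_d, T_b] M (Nat.sub (T_di u) (Nat.mod (T_di u) M)) (Nat.mod (T_di u) M) u) (Bool.rec (motive := fun _ => Bool) (lF [T_b, T_di, T_bi, T_d, T_bi] M (Nat.sub (T_di u) (Nat.mod (T_di u) M)) (Nat.mod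 (T_di u) M) u) (dp_di_2 j u) (Nat.ble (nat_lit 6) j)) (Nat.ble (nat_lit 5) j)) (Nat.ble (nat_lit 4) j)) (Nat.ble (nat_lit 2) j)
noncomputable def chk_di (j u : ℕ) : Bool :=
  Bool.rec (motive := fun _ => Bool) (disp_di j u) (Nat.ble (Nat.succ (MG u)) A) (Nat.ble A (T_di u))
noncomputable def dM_0 (j z1 z2 u : ℕ) : Bool :=
  Bool.rec (motive := fun _ => Bool) (mRel MG [T_d, T_bi, T_d] [T_bi, T_d, T_bi] M (Nat.sub (MG u) (Nat.mod (MG u) M)) (nat_lit 40) z1 u (Nat.mod (MG u) M)) (Bool.rec (motive := fun _ => Bool) (mRel MG [T_bi, T_d, T_d, T_d, T_b, T_d, T_b, T_b, T_di, T_bi] [T_d, T_d, T_d] M (Nat.sub (MG u) (Nat.mod (MG u) M)) (nat_lit 40) z1 u (Nat.mod (MG u) M)) (mRel MG [T_b, T_d, T_bi, T_bi, T_di, T_bi, T_di, T_di] [T_di, T_di, T_di, T_bi, T_d] M (Nat.sub (MG u) (Nat.mod (MG u) M)) (nat_lit 40) z1 u (Nat.mod (MG u) M)) (Nat.ble (nat_lit 2) j)) (Nat.ble (nat_lit 1) j)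
noncomputable def chkM (u : ℕ) : Bool :=
  Bool.rec (motive := fun _ => Bool) (band (Nat.ble (Nat.succ (Nat.mod (MG u) M)) u) (dM_0 (Nat.land (MR u) (nat_lit 15)) (Nat.land (Nat.shiftRight (MR u) (nat_lit 4)) (nat_lit 63)) (Nat.shiftRight (MR u) (nat_lit 10)) u)) true (Nat.ble A (MG u))
noncomputable def chkN (u : ℕ) : Bool :=
  band (chk_b (Nat.land (Nat.shiftRight (RS u) (nat_lit 0)) (nat_lit 15)) u) (band (chk_bi (Nat.land (Nat.shiftRight (RS u) (nat_lit 4)) (nat_lit 15)) u) (band (chk_d (Nat.land (Nat.shiftRight (RS u) (nat_lit 8)) (nat_lit 15)) u) (band (chk_di (Nat.land (Nat.shiftRight (RS u) (nat_lit 12)) (nat_lit 15)) u) (chkM u))))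
noncomputable def chkP (u : ℕ) : Bool := Bool.rec (motive := fun _ => Bool) (chkN u) true (Nat.ble M u)
noncomputable def liveP (u : ℕ) : Bool := Bool.rec (motive := fun _ => Bool) (Nat.ble A (MG u)) false (Nat.ble M u)
end H91.TCL34B
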