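import Mathlib.Init
set_option autoImplicit false
set_option maxRecDepth 100000
set_option linter.all false
namespace H91.TCL34B
noncomputable def T_b_0 (i : Nat) : Nat := Nat.land (Nat.shiftRight (nat_lit 0xe561022e4b0cadc629058205009a7d5020450a216021ffd43fff01c0c40682f16802c1680a34c0ad3f18b0100a0128070420780281c00805c0a81200403c0600101201801833) (Nat.mul (nat_lit 11) (Nat.land i (nat_lit 2047)))) (nat_lit 2047)
noncomputable abbrev T_b : Nat → Nat := T_b_0
noncomputable def T_bi_0 (i : Nat) : Nat := Nat.land (Nat.shiftRight (nat_lit 0xf200f1fb038d780ca5d02cbd5ae8125266b008bfa4a5ffc07fffffe0395f00c1ce9195f9ef0147c00482a0520201302300c07c0e805034060018130200080680b00201c02066) (Nat.mul (nat_lit 11) (Nat.land i (nat_lit 2047)))) (nat_lit 2047)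
noncomputable abbrev T_bi : Nat → Nat := T_bi_0
noncomputable def T_d_0 (i : Nat) : Nat := Nat.land (Nat.shiftRight (nat_lit 0xd69e39c14c0e297ba5558451c71a81022538d80102a003cf8fff2980c92a03054cc78170403640b12c8081aa22c038d81bc0806b9450360640b0020d21b00706a01400002801) (Nat.mul (nat_lit 11) (Nat.land i (nat_lit 2047)))) (nat_lit 2047)
noncomputable abbrev T_d : Nat → Nat := T_d_0
noncomputable def T_di_0 (i : Nat) : Nat := Nat.land (Nat.shiftRight (nat_lit 0x79fd01c45a0659501651ecbcfda136bc6e422a2a437ffd7200effe6212c925016478051f025002494a0c2e2438138240440143f10f14c00c5601402227c0089d14002000002) (Nat.mul (nat_lit 11) (Nat.land i (nat_lit 2047)))) (nat_lit 2047)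
noncomputable abbrev T_di : Nat → Nat := T_di_0
noncomputable def P_0 (i : Nat) : Nat := Nat.land (Nat.shiftRight (nat_lit 0x78bc1c2e064b2162b0506632089c46210380bcde0e270b81a2c0592c544a150249208340a00e67130148a250208c860231088024110800c0400) (Nat.mul (nat_lit 9) (Nat.land i (nat_lit 2047)))) (nat_lit 511)
noncomputable abbrev P : Nat → Nat := P_0
noncomputable def MG_0 (i : Nat) : Nat := Nat.land (Nat.shiftRight (nat_lit 0x1fffffffffffffffffffffffffffffffffffffffffffe9ffff9df2f9fffffffffffffffffffffffffffffffffffffffffffffffffffffffffffffffffffffffffffffffffffff) (Nat.mul (nat_lit 11) (Nat.land i (nat_lit 2047)))) (nat_lit 2047)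
noncomputable abbrev MG : Nat → Nat := MG_0
noncomputable def RS_0 (i : Nat) : Nat := Nat.land (Nat.shiftRight (nat_lit 0x102304021a32300310240902107230039021036130055225302138028242534102004002100000010100702141001624505111200531060711304002621300110000221023112400111000110700511111104100221023110400111005110100221011102126) (Nat.mul (nat_lit 16) (Nat.land i (nat_lit 2047)))) (nat_lit 65535)
noncomputable abbrev RS : Nat → Nat := RS_0
noncomputable def MR_0 (i : Nat) : Nat := Nat.land (Nat.shiftRight (nat_lit 0x420011c000000000000000000000000000000000000000000000000000000000000000) (Nat.mul (nat_lit 8) (Nat.land i (nat_lit 4095)))) (nat_lit 255)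
noncomputable abbrev MR : Nat → Nat := MR_0
/-- number of nodes -/
abbrev M : Nat := 51
/-- absent threshold -/
abbrev A : Nat := 2047
end H91.TCL34B
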