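import Cfsg.Agent.Lib.H91.TCL34B.Chk
set_option autoImplicit false
set_option maxRecDepth 100000
set_option linter.all false
namespace H91.TCL34B
open H35.TC
section
variable {G : Type} [Group G] {g : Lt → G} {H : Subgroup G}
/-- the points of the nodes -/
noncomputable def cP (g : Lt → G) (H : Subgroup G) : ℕ → G ⧸ H := cc (fa g) lt P ((1 : G) : G ⧸ H)
theorem dp_b_0_s (hinv : ∀ x, g (inv x) = (g x)⁻¹) (hr : ∀ r ∈ rels, (r.map g).prod = 1) (hH : ∀ r ∈ subs, (r.map g).prod ∈ H)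
    (j u : ℕ) (hu : u < M) (h : dp_b_0 j u = true) : Good (fa g) T MG M (cP g H) Lt.b u := by
  unfold dp_b_0 at h
  rcases brec_true h with h | h
  · exact lH_good (T := T) (x := Lt.b) (by decide) [] [] (by rw [show cP g H 0 = _ from cc_zero]; exact sub_rel hinv (hH _ (by decide))) h
  · exact lS_good (T := T) (x := Lt.b) (by decide) hu [Lt.bi] (hole_rel hinv hr (by decide +kernel)) h
theorem dp_b_1_s (hinv : ∀ x, g (inv x) = (g x)⁻¹) (hr : ∀ r ∈ rels, (r.map g).prod = 1) (hH : ∀ r ∈ subs, (r.map g).prod ∈ H)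
    (j u : ℕ) (hu : u < M) (h : dp_b_1 j u = true) : Good (fa g) T MG M (cP g H) Lt.b u := by
  unfold dp_b_1 at h
  rcases brec_true h with h | h
  · exact lF_good (T := T) (x := Lt.b) (by decide) [Lt.di, Lt.bi, Lt.d, Lt.bi, Lt.di] (hole_rel hinv hr (by decide +kernel)) h
  · exact dp_b_0_s hinv hr hH j u hu h
theorem snd_b (hinv : ∀ x, g (inv x) = (g x)⁻¹) (hr : ∀ r ∈ rels, (r.map g).prod = 1) (hH : ∀ r ∈ subs, (r.map g).prod ∈ H)
    (j u : ℕ) (hu : u < M) (h : disp_b j u = true) : Good (fa g) T MG M (cP g H) Lt.b u := by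
  unfold disp_b at h
  rcases brec_true h with h | h
  · rcases brec_true h with h | h
    · exact lDef_good (T := T) (x := Lt.b) (by decide) rfl h
    · exact lPar_good (T := T) (x := Lt.b) (x' := Lt.bi) (by decide) rfl (inv_rel hinv _ _ rfl) h
  · rcases brec_true h with h | h
    · exact lF1_good (T := T) (x := Lt.b) (by decide) .bi (hole_rel hinv hr (by decide +kernel)) h
    · rcases brec_true h with h | h
      · exact lF_good (T := T) (x := Lt.b) (by decide) [Lt.d, Lt.bi, Lt.d, Lt.b, Lt.di] (hole_rel hinv hr (by decide +kernel)) h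
      · rcases brec_true h with h | h
        · exact lF_good (T := T) (x := Lt.b) (by decide) [Lt.di, Lt.b, Lt.d, Lt.bi, Lt.d] (hole_rel hinv hr (by decide +kernel)) h
        · exact dp_b_1_s hinv hr hH j u hu h
theorem snc_b (hinv : ∀ x, g (inv x) = (g x)⁻¹) (hr : ∀ r ∈ rels, (r.map g).prod = 1) (hH : ∀ r ∈ subs, (r.map g).prod ∈ H)
    (j u : ℕ) (hu : u < M) (h : chk_b j u = true) : (T Lt.b u < A ∧ Good (fa g) T MG M (cP g H) Lt.b u) ∨ (A ≤ T Lt.b u ∧ MG u < A) := by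
  unfold chk_b at h
  cases hb : Nat.ble A (T_b u) with
  | true => rw [hb] at h; exact Or.inr ⟨le_of_ble hb, le_of_ble h⟩
  | false => rw [hb] at h; exact Or.inl ⟨lt_of_ble_false hb, snd_b hinv hr hH j u hu h⟩
theorem dp_bi_0_s (hinv : ∀ x, g (inv x) = (g x)⁻¹) (hr : ∀ r ∈ rels, (r.map g).prod = 1) (hH : ∀ r ∈ subs, (r.map g).prod ∈ H)
    (j u : ℕ) (hu : u < M) (h : dp_bi_0 j u = true) : Good (fa g) T MG M (cP g H) Lt.bi u := by
  unfold dp_bi_0 at h
  rcases brec_true h with h | h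
  · exact lF_good (T := T) (x := Lt.bi) (by decide) [Lt.di, Lt.bi, Lt.di, Lt.di, Lt.di, Lt.b, Lt.d, Lt.d, Lt.d, Lt.b, Lt.d, Lt.bi] (hole_rel hinv hr (by decide +kernel)) h
  · exact lF_good (T := T) (x := Lt.bi) (by decide) [Lt.di, Lt.di, Lt.di, Lt.b, Lt.d, Lt.d, Lt.d, Lt.b, Lt.d, Lt.bi, Lt.bi, Lt.di] (hole_rel hinv hr (by decide +kernel)) h
theorem dp_bi_1_s (hinv : ∀ x, g (inv x) = (g x)⁻¹) (hr : ∀ r ∈ rels, (r.map g).prod = 1) (hH : ∀ r ∈ subs, (r.map g).prod ∈ H)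
    (j u : ℕ) (hu : u < M) (h : dp_bi_1 j u = true) : Good (fa g) T MG M (cP g H) Lt.bi u := by
  unfold dp_bi_1 at h
  rcases brec_true h with h | h
  · exact lF_good (T := T) (x := Lt.bi) (by decide) [Lt.di, Lt.b, Lt.di, Lt.bi, Lt.d] (hole_rel hinv hr (by decide +kernel)) h
  · exact dp_bi_0_s hinv hr hH j u hu h
theorem dp_bi_2_s (hinv : ∀ x, g (inv x) = (g x)⁻¹) (hr : ∀ r ∈ rels, (r.map g).prod = 1) (hH : ∀ r ∈ subs, (r.map g).prod ∈ H)
    (j u : ℕ) (hu : u < M) (h : dp_bi_2 j u = true) : Good (fa g) T MG M (cP g H) Lt.bi u := by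
  unfold dp_bi_2 at h
  rcases brec_true h with h | h
  · exact lF_good (T := T) (x := Lt.bi) (by decide) [Lt.d, Lt.bi, Lt.di, Lt.b, Lt.di] (hole_rel hinv hr (by decide +kernel)) h
  · exact dp_bi_1_s hinv hr hH j u hu h
theorem snd_bi (hinv : ∀ x, g (inv x) = (g x)⁻¹) (hr : ∀ r ∈ rels, (r.map g).prod = 1) (hH : ∀ r ∈ subs, (r.map g).prod ∈ H)
    (j u : ℕ) (hu : u < M) (h : disp_bi j u = true) : Good (fa g) T MG M (cP g H) Lt.bi u := by
  unfold disp_bi at h
  rcases brec_true h with h | h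
  · exact lPar_good (T := T) (x := Lt.bi) (x' := Lt.b) (by decide) rfl (inv_rel hinv _ _ rfl) h
  · rcases brec_true h with h | h
    · exact lDef_good (T := T) (x := Lt.bi) (by decide) rfl h
    · rcases brec_true h with h | h
      · exact lF1_good (T := T) (x := Lt.bi) (by decide) .b (hole_rel hinv hr (by decide +kernel)) h
      · rcases brec_true h with h | h
        · exact lF_good (T := T) (x := Lt.bi) (by decide) [Lt.d, Lt.b, Lt.di, Lt.b, Lt.d] (hole_rel hinv hr (by decide +kernel)) h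
        · exact dp_bi_2_s hinv hr hH j u hu h
theorem snc_bi (hinv : ∀ x, g (inv x) = (g x)⁻¹) (hr : ∀ r ∈ rels, (r.map g).prod = 1) (hH : ∀ r ∈ subs, (r.map g).prod ∈ H)
    (j u : ℕ) (hu : u < M) (h : chk_bi j u = true) : (T Lt.bi u < A ∧ Good (fa g) T MG M (cP g H) Lt.bi u) ∨ (A ≤ T Lt.bi u ∧ MG u < A) := by
  unfold chk_bi at h
  cases hb : Nat.ble A (T_bi u) with
  | true => rw [hb] at h; exact Or.inr ⟨le_of_ble hb, le_of_ble h⟩
  | false => rw [hb] at h; exact Or.inl ⟨lt_of_ble_false hb, snd_bi hinv hr hH j u hu h⟩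
theorem dp_d_0_s (hinv : ∀ x, g (inv x) = (g x)⁻¹) (hr : ∀ r ∈ rels, (r.map g).prod = 1) (hH : ∀ r ∈ subs, (r.map g).prod ∈ H)
    (j u : ℕ) (hu : u < M) (h : dp_d_0 j u = true) : Good (fa g) T MG M (cP g H) Lt.d u := by
  unfold dp_d_0 at h
  rcases brec_true h with h | h
  · exact lF_good (T := T) (x := Lt.d) (by decide) [Lt.bi, Lt.d, Lt.b, Lt.di, Lt.b] (hole_rel hinv hr (by decide +kernel)) h
  · exact lF_good (T := T) (x := Lt.d) (by decide) [Lt.b, Lt.di, Lt.b, Lt.d, Lt.bi] (hole_rel hinv hr (by decide +kernel)) h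
theorem dp_d_1_s (hinv : ∀ x, g (inv x) = (g x)⁻¹) (hr : ∀ r ∈ rels, (r.map g).prod = 1) (hH : ∀ r ∈ subs, (r.map g).prod ∈ H)
    (j u : ℕ) (hu : u < M) (h : dp_d_1 j u = true) : Good (fa g) T MG M (cP g H) Lt.d u := by
  unfold dp_d_1 at h
  rcases brec_true h with h | h
  · exact lS_good (T := T) (x := Lt.d) (by decide) hu [Lt.di] (hole_rel hinv hr (by decide +kernel)) h
  · exact lF_good (T := T) (x := Lt.d) (by decide) [Lt.b, Lt.b, Lt.di, Lt.bi, Lt.di, Lt.di, Lt.di, Lt.bi, Lt.d, Lt.d, Lt.d, Lt.b] (hole_rel hinv hr (by decide +kernel)) h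
theorem dp_d_2_s (hinv : ∀ x, g (inv x) = (g x)⁻¹) (hr : ∀ r ∈ rels, (r.map g).prod = 1) (hH : ∀ r ∈ subs, (r.map g).prod ∈ H)
    (j u : ℕ) (hu : u < M) (h : dp_d_2 j u = true) : Good (fa g) T MG M (cP g H) Lt.d u := by
  unfold dp_d_2 at h
  rcases brec_true h with h | h
  · exact lF_good (T := T) (x := Lt.d) (by decide) [Lt.bi, Lt.bi, Lt.di, Lt.bi, Lt.di, Lt.di, Lt.di, Lt.b, Lt.d, Lt.d, Lt.d, Lt.b] (hole_rel hinv hr (by decide +kernel)) h
  · exact lF_good (T := T) (x := Lt.d) (by decide) [Lt.b, Lt.d, Lt.bi, Lt.bi, Lt.di, Lt.bi, Lt.di, Lt.di, Lt.di, Lt.b, Lt.d, Lt.d] (hole_rel hinv hr (by decide +kernel)) h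
theorem dp_d_3_s (hinv : ∀ x, g (inv x) = (g x)⁻¹) (hr : ∀ r ∈ rels, (r.map g).prod = 1) (hH : ∀ r ∈ subs, (r.map g).prod ∈ H)
    (j u : ℕ) (hu : u < M) (h : dp_d_3 j u = true) : Good (fa g) T MG M (cP g H) Lt.d u := by
  unfold dp_d_3 at h
  rcases brec_true h with h | h
  · exact lS_good (T := T) (x := Lt.d) (by decide) hu [Lt.d, Lt.b, Lt.d, Lt.bi, Lt.bi, Lt.di, Lt.bi, Lt.di, Lt.di, Lt.di, Lt.b, Lt.d] (hole_rel hinv hr (by decide +kernel)) h
  · exact dp_d_2_s hinv hr hH j u hu h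
theorem dp_d_4_s (hinv : ∀ x, g (inv x) = (g x)⁻¹) (hr : ∀ r ∈ rels, (r.map g).prod = 1) (hH : ∀ r ∈ subs, (r.map g).prod ∈ H)
    (j u : ℕ) (hu : u < M) (h : dp_d_4 j u = true) : Good (fa g) T MG M (cP g H) Lt.d u := by
  unfold dp_d_4 at h
  rcases brec_true h with h | h
  · rcases brec_true h with h | h
    · exact lPar_good (T := T) (x := Lt.d) (x' := Lt.di) (by decide) rfl (inv_rel hinv _ _ rfl) h
    · exact lF_good (T := T) (x := Lt.d) (by decide) [Lt.bi, Lt.di, Lt.b, Lt.di, Lt.bi] (hole_rel hinv hr (by decide +kernel)) h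
  · rcases brec_true h with h | h
    · exact dp_d_0_s hinv hr hH j u hu h
    · rcases brec_true h with h | h
      · exact dp_d_1_s hinv hr hH j u hu h
      · exact dp_d_3_s hinv hr hH j u hu h
theorem snd_d (hinv : ∀ x, g (inv x) = (g x)⁻¹) (hr : ∀ r ∈ rels, (r.map g).prod = 1) (hH : ∀ r ∈ subs, (r.map g).prod ∈ H)
    (j u : ℕ) (hu : u < M) (h : disp_d j u = true) : Good (fa g) T MG M (cP g H) Lt.d u := by
  unfold disp_d at h
  rcases brec_true h with h | h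
  · rcases brec_true h with h | h
    · exact lF1_good (T := T) (x := Lt.d) (by decide) .di (hole_rel hinv hr (by decide +kernel)) h
    · exact lDef_good (T := T) (x := Lt.d) (by decide) rfl h
  · exact dp_d_4_s hinv hr hH j u hu h
theorem snc_d (hinv : ∀ x, g (inv x) = (g x)⁻¹) (hr : ∀ r ∈ rels, (r.map g).prod = 1) (hH : ∀ r ∈ subs, (r.map g).prod ∈ H)
    (j u : ℕ) (hu : u < M) (h : chk_d j u = true) : (T Lt.d u < A ∧ Good (fa g) T MG M (cP g H) Lt.d u) ∨ (A ≤ T Lt.d u ∧ MG u < A) := by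
  unfold chk_d at h
  cases hb : Nat.ble A (T_d u) with
  | true => rw [hb] at h; exact Or.inr ⟨le_of_ble hb, le_of_ble h⟩
  | false => rw [hb] at h; exact Or.inl ⟨lt_of_ble_false hb, snd_d hinv hr hH j u hu h⟩
theorem dp_di_0_s (hinv : ∀ x, g (inv x) = (g x)⁻¹) (hr : ∀ r ∈ rels, (r.map g).prod = 1) (hH : ∀ r ∈ subs, (r.map g).prod ∈ H)
    (j u : ℕ) (hu : u < M) (h : dp_di_0 j u = true) : Good (fa g) T MG M (cP g H) Lt.di u := by
  unfold dp_di_0 at h
  rcases brec_true h with h | h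
  · exact lS_good (T := T) (x := Lt.di) (by decide) hu [Lt.d] (hole_rel hinv hr (by decide +kernel)) h
  · exact lF_good (T := T) (x := Lt.di) (by decide) [Lt.di, Lt.di, Lt.b, Lt.d, Lt.d, Lt.d, Lt.b, Lt.d, Lt.bi, Lt.bi, Lt.di, Lt.bi] (hole_rel hinv hr (by decide +kernel)) h
theorem dp_di_1_s (hinv : ∀ x, g (inv x) = (g x)⁻¹) (hr : ∀ r ∈ rels, (r.map g).prod = 1) (hH : ∀ r ∈ subs, (r.map g).prod ∈ H)
    (j u : ℕ) (hu : u < M) (h : dp_di_1 j u = true) : Good (fa g) T MG M (cP g H) Lt.di u := by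
  unfold dp_di_1 at h
  rcases brec_true h with h | h
  · exact lF_good (T := T) (x := Lt.di) (by decide) [Lt.di, Lt.bi, Lt.d, Lt.d, Lt.d, Lt.b, Lt.d, Lt.b, Lt.b, Lt.di, Lt.bi, Lt.di] (hole_rel hinv hr (by decide +kernel)) h
  · exact lS_good (T := T) (x := Lt.di) (by decide) hu [Lt.di, Lt.bi, Lt.d, Lt.d, Lt.d, Lt.b, Lt.d, Lt.b, Lt.b, Lt.di, Lt.bi, Lt.di] (hole_rel hinv hr (by decide +kernel)) h
theorem dp_di_2_s (hinv : ∀ x, g (inv x) = (g x)⁻¹) (hr : ∀ r ∈ rels, (r.map g).prod = 1) (hH : ∀ r ∈ subs, (r.map g).prod ∈ H)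
    (j u : ℕ) (hu : u < M) (h : dp_di_2 j u = true) : Good (fa g) T MG M (cP g H) Lt.di u := by
  unfold dp_di_2 at h
  rcases brec_true h with h | h
  · exact dp_di_0_s hinv hr hH j u hu h
  · exact dp_di_1_s hinv hr hH j u hu h
theorem snd_di (hinv : ∀ x, g (inv x) = (g x)⁻¹) (hr : ∀ r ∈ rels, (r.map g).prod = 1) (hH : ∀ r ∈ subs, (r.map g).prod ∈ H)
    (j u : ℕ) (hu : u < M) (h : disp_di j u = true) : Good (fa g) T MG M (cP g H) Lt.di u := by
  unfold disp_di at h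
  rcases brec_true h with h | h
  · rcases brec_true h with h | h
    · exact lF1_good (T := T) (x := Lt.di) (by decide) .d (hole_rel hinv hr (by decide +kernel)) h
    · exact lPar_good (T := T) (x := Lt.di) (x' := Lt.d) (by decide) rfl (inv_rel hinv _ _ rfl) h
  · rcases brec_true h with h | h
    · rcases brec_true h with h | h
      · exact lDef_good (T := T) (x := Lt.di) (by decide) rfl h
      · exact lF_good (T := T) (x := Lt.di) (by decide) [Lt.bi, Lt.d, Lt.bi, Lt.di, Lt.b] (hole_rel hinv hr (by decide +kernel)) h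
    · rcases brec_true h with h | h
      · exact lF_good (T := T) (x := Lt.di) (by decide) [Lt.b, Lt.d, Lt.bi, Lt.d, Lt.b] (hole_rel hinv hr (by decide +kernel)) h
      · rcases brec_true h with h | h
        · exact lF_good (T := T) (x := Lt.di) (by decide) [Lt.b, Lt.di, Lt.bi, Lt.d, Lt.bi] (hole_rel hinv hr (by decide +kernel)) h
        · exact dp_di_2_s hinv hr hH j u hu h
theorem snc_di (hinv : ∀ x, g (inv x) = (g x)⁻¹) (hr : ∀ r ∈ rels, (r.map g).prod = 1) (hH : ∀ r ∈ subs, (r.map g).prod ∈ H)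
    (j u : ℕ) (hu : u < M) (h : chk_di j u = true) : (T Lt.di u < A ∧ Good (fa g) T MG M (cP g H) Lt.di u) ∨ (A ≤ T Lt.di u ∧ MG u < A) := by
  unfold chk_di at h
  cases hb : Nat.ble A (T_di u) with
  | true => rw [hb] at h; exact Or.inr ⟨le_of_ble hb, le_of_ble h⟩
  | false => rw [hb] at h; exact Or.inl ⟨lt_of_ble_false hb, snd_di hinv hr hH j u hu h⟩
theorem dM_0_s (hinv : ∀ x, g (inv x) = (g x)⁻¹) (hr : ∀ r ∈ rels, (r.map g).prod = 1) (j z1 z2 u : ℕ) (h : dM_0 j z1 z2 u = true) : GoodM (fa g) T MG M (cP g H) u := by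
  unfold dM_0 at h
  rcases brec_true h with h | h
  · exact mRel_good (T := T) (by decide) [Lt.d, Lt.bi, Lt.d] [Lt.bi, Lt.d, Lt.bi] (pair_rel hinv hr (by decide +kernel)) h
  · rcases brec_true h with h | h
    · exact mRel_good (T := T) (by decide) [Lt.bi, Lt.d, Lt.d, Lt.d, Lt.b, Lt.d, Lt.b, Lt.b, Lt.di, Lt.bi] [Lt.d, Lt.d, Lt.d] (pair_rel hinv hr (by decide +kernel)) h
    · exact mRel_good (T := T) (by decide) [Lt.b, Lt.d, Lt.bi, Lt.bi, Lt.di, Lt.bi, Lt.di, Lt.di] [Lt.di, Lt.di, Lt.di, Lt.bi, Lt.d] (pair_rel hinv hr (by decide +kernel)) h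
theorem sndM (hinv : ∀ x, g (inv x) = (g x)⁻¹) (hr : ∀ r ∈ rels, (r.map g).prod = 1) (u : ℕ) (h : chkM u = true) :
    MG u < A → MG u % M < u ∧ GoodM (fa g) T MG M (cP g H) u := by
  intro hA
  unfold chkM at h
  cases hb : Nat.ble A (MG u) with
  | true => exact absurd (le_of_ble hb) (by omega)
  | false =>
    rw [hb] at h
    obtain ⟨h1, h2⟩ := band_eq_true.1 h
    exact ⟨le_of_ble h1, dM_0_s hinv hr _ _ _ _ h2⟩
theorem sndN (hinv : ∀ x, g (inv x) = (g x)⁻¹) (hr : ∀ r ∈ rels, (r.map g).prod = 1) (hH : ∀ r ∈ subs, (r.map g).prod ∈ H)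
    (u : ℕ) (hu : u < M) (h : chkP u = true) : (∀ x, (T x u < A ∧ Good (fa g) T MG M (cP g H) x u) ∨ (A ≤ T x u ∧ MG u < A)) ∧ (MG u < A → MG u % M < u ∧ GoodM (fa g) T MG M (cP g H) u) := by
  unfold chkP at h
  cases hb : Nat.ble M u with
  | true => exact absurd (le_of_ble hb) (by omega)
  | false =>
    rw [hb] at h
    change chkN u = true at h
    unfold chkN at h
    obtain ⟨h0, h⟩ := band_eq_true.1 h
    obtain ⟨h1, h⟩ := band_eq_true.1 h
    obtain ⟨h2, h⟩ := band_eq_true.1 h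
    obtain ⟨h3, h⟩ := band_eq_true.1 h
    refine ⟨?_, sndM hinv hr u h⟩
    intro x
    cases x
    · exact snc_b hinv hr hH _ u hu h0
    · exact snc_bi hinv hr hH _ u hu h1
    · exact snc_d hinv hr hH _ u hu h2
    · exact snc_di hinv hr hH _ u hu h3
theorem final (hinv : ∀ x, g (inv x) = (g x)⁻¹) (hr : ∀ r ∈ rels, (r.map g).prod = 1) (hH : ∀ r ∈ subs, (r.map g).prod ∈ H)
    (hall : ∀ u, u < M → chkP u = true) (hc : cntB liveP 6 0 = 48) :
    H.relIndex (Subgroup.closure (Set.range g)) ≤ 48 ∧ H.relIndex (Subgroup.closure (Set.range g)) ≠ 0 := by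
  have hn := fun u hu => sndN hinv hr hH u hu (hall u hu)
  have h1 : ∀ x u, u < M → T x u < A → Good (fa g) T MG M (cP g H) x u := by
    intro x u hu hx
    rcases (hn u hu).1 x with h | h
    · exact h.2
    · exact absurd h.1 (by omega)
  have h2 : ∀ u, u < M → MG u < A → GoodM (fa g) T MG M (cP g H) u := fun u hu h => ((hn u hu).2 h).2
  refine relIndex_le (M := M) (A := A) (T := T) (MG := MG) (c := cP g H) (by decide) cc_zero (sound_of_good h1 h2) ?_ ?_ ?_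
  · intro u hu h
    exact ((hn u hu).2 h).1
  · intro x u hu h
    rcases (hn u hu).1 x with h' | h'
    · exact h'.1
    · exact absurd h'.2 (by omega)
  · rw [← hc, ← cntB_spec]
    apply Finset.card_le_card
    intro u
    simp only [Finset.mem_filter, Finset.mem_Ico]
    rintro ⟨⟨_, h3⟩, h4⟩
    refine ⟨⟨Nat.zero_le _, lt_of_lt_of_le h3 (by decide)⟩, ?_⟩
    unfold liveP
    cases hb : Nat.ble M u with
    | true => exact absurd (le_of_ble hb) (by omega)
    | false => exact h4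
end
end H91.TCL34B
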